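import Cfsg.Agent.Lib.McR3.R3

/-!
# Comparison of a rank 3 action on 275 points with the model
-/

set_option autoImplicit false

namespace Cfsg.Lib.McR3

open MulAction Cfsg.Lib.SuzR

variable {S G H X Ω : Type*} [Group S] [Group G] [Group H] [MulAction S X] [MulAction H X] [MulAction G Ω]

/-- The data of the model. -/
structure Md (S H : Type*) [Group S] [Group H] [MulAction S X] [MulAction H X] (a b c y1 y2 w1 w2 : X) :
    Prop where
  R : Q3 S H a b c
  card : Nat.card H = 3265920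
  oy : ∀ y ∈ orbit H b, y = b ∨ y ∈ orbit (stabilizer H b) y1 ∨ y ∈ orbit (stabilizer H b) y2
  ny1 : (orbit (stabilizer H b) y1).ncard = 30
  ny2 : (orbit (stabilizer H b) y2).ncard = 81
  ay1 : Adj S a b b y1
  ay2 : ¬ Adj S a b b y2
  cy1 : {z | z ∈ orbit H b ∧ Adj S a b b z ∧ Adj S a b y1 z}.ncard = 2
  ow : ∀ y ∈ orbit H c, y = c ∨ y ∈ orbit (stabilizer H c) w1 ∨ y ∈ orbit (stabilizer H c) w2
  nw1 : (orbit (stabilizer H c) w1).ncard = 56
  nw2 : (orbit (stabilizer H c) w2).ncard = 105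
  sep : ∀ x ∈ orbit H c, (∀ y ∈ orbit H b, Adj S a b x y ↔ Adj S a b c y) → x = c

theorem arith {k l : ℕ} (hk : k ≤ 30) (d : 1 + k + l ∣ 29160) (h3 : ¬ 3 ∣ 1 + k + l) (d1 : 30 ∣ (1 + k + l) * k)
    (d2 : 81 ∣ (1 + k + l) * l) : 1 + k + l = 1 ∨ k = 9 ∧ l = 0 := by
  have c : Nat.Coprime (3 ^ 6) (1 + k + l) :=
    Nat.Coprime.pow_left 6 ((Nat.Prime.coprime_iff_not_dvd Nat.prime_three).2 h3)
  have e : 1 + k + l ∣ 40 := c.symm.dvd_of_dvd_mul_left (by simpa using d)
  have f : 81 ∣ l := (c.coprime_dvd_left (by decide : 81 ∣ 3 ^ 6)).dvd_of_dvd_mul_left d2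
  have g := Nat.le_of_dvd (by decide) e
  obtain rfl : l = 0 := by omega
  interval_cases k <;> omega

theorem Q3.adj_change [MulAction H Ω] {a b c b' : Ω} (R : Q3 G H a b c) (hb : b' ∈ orbit H b) {x y : Ω} :
    Adj G a b' x y ↔ Adj G a b x y := by
  obtain ⟨g, rfl⟩ := R.tr x
  rw [← smul_inv_smul g y, adj_smul, adj_smul, R.adj_a, (R.change hb (mem_orbit_self c)).adj_a, orbit_eq_iff.2 hb]

namespace Md

variable {a b c y1 y2 w1 w2 : X} (M : Md S H a b c y1 y2 w1 w2)
include M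

theorem finH : Finite H := Nat.finite_of_card_ne_zero (by rw [M.card]; decide)

theorem adj_orb {x y z : X} (h : z ∈ orbit (stabilizer H x) y) : Adj S a b x z ↔ Adj S a b x y := by
  obtain ⟨g, hg, rfl⟩ := mem_orb.1 h
  rw [← M.R.adjH (x := x) (y := y) g, mem_stabilizer_iff.1 hg]

theorem card_b : Nat.card (stabilizer H b) = 29160 := by
  have := card_stab (H := H) b
  rw [M.R.hb, M.card] at this
  omega

/-- A subgroup of index 112 fixes a point of the orbit of length 112. -/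
theorem le_stab_b {J : Subgroup H} (hJ : Nat.card J = 29160) (h3 : ¬ 3 ∣ (orbit J b).ncard) : J ≤ stabilizer H b := by
  have := M.R.fin
  have := M.finH
  have sub : orbit J b ⊆ orbit H b := fun _ ⟨g, e⟩ => ⟨g, e⟩
  have i := (inv_orb J b).mono (inf_le_left : J ⊓ stabilizer H b ≤ J)
  have d1 := Inv.dvd_of_index (hJ.trans M.card_b.symm) Set.inter_subset_right
    (i.inter ((inv_orb _ y1).mono inf_le_right))
  have d2 := Inv.dvd_of_index (hJ.trans M.card_b.symm) Set.inter_subset_right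
    (i.inter ((inv_orb _ y2).mono inf_le_right))
  have n := ncard_three (L := orbit J b) (A := {b}) (fun y hy => or_assoc.2 (M.oy y (sub hy)))
    (Set.disjoint_singleton_left.2 (not_mem_orb_stab (by rw [M.ny1]; decide)))
    (Set.disjoint_singleton_left.2 (not_mem_orb_stab (by rw [M.ny2]; decide)))
    (disj_orb (by rw [M.ny1, M.ny2]; decide))
  rw [Set.inter_eq_right.2 (Set.singleton_subset_iff.2 (mem_orbit_self b)), Set.ncard_singleton] at n
  have l1 := (Set.ncard_le_ncard (Set.inter_subset_right (s := orbit J b))).trans M.ny1.le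
  have d : (orbit J b).ncard ∣ 29160 := ⟨_, hJ.symm.trans (orb_mul J b).symm⟩
  rw [M.ny1] at d1
  rw [M.ny2] at d2
  refine le_stab_of_ncard ?_
  rw [n] at d d1 d2 h3 ⊢
  refine (arith l1 d h3 d1 d2).resolve_right fun ⟨k9, l0⟩ => ?_
  have cl : ∀ y ∈ orbit J b, ∀ z ∈ orbit J b, z ≠ y → Adj S a b y z := fun y hy z hz nz => by
    obtain ⟨g, hg, rfl⟩ := mem_orb.1 hy
    have u := inv_orb J b g⁻¹ (J.inv_mem hg) _ hz
    rw [← smul_inv_smul g z, M.R.adjH]
    rcases M.oy _ (sub u) with e | e | e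
    exacts [absurd (inv_smul_eq_iff.1 e) nz, (M.adj_orb e).2 M.ay1,
      absurd ((Set.ncard_eq_zero).1 l0) (Set.Nonempty.ne_empty ⟨_, u, e⟩)]
  obtain ⟨y, hy, hy'⟩ := Set.nonempty_of_ncard_ne_zero (k9.trans_ne (by decide))
  obtain ⟨g, hg, rfl⟩ := mem_orb.1 hy'
  have e : {z | z ∈ orbit H b ∧ Adj S a b b z ∧ Adj S a b (g • y1) z}.ncard = 2 := by
    rw [← M.cy1]
    refine ncard_smul_eq g fun z => ?_
    rw [smul_mem_orbit_iff, M.R.adjH, ← M.R.adjH (x := b) (y := z) g, mem_stabilizer_iff.1 hg]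
  have t := Set.ncard_le_ncard (s := orbit J b \ {b, g • y1})
    (t := {z | z ∈ orbit H b ∧ Adj S a b b z ∧ Adj S a b (g • y1) z}) fun z hz =>
    ⟨sub hz.1, cl b (mem_orbit_self b) z hz.1 fun q => hz.2 (.inl q), cl _ hy z hz.1 fun q => hz.2 (.inr q)⟩
  have t' := Set.ncard_le_ncard_sdiff_add_ncard (orbit J b) (t := {b, g • y1})
  have t'' := Set.ncard_insert_le b {g • y1}
  rw [Set.ncard_singleton] at t''
  omega

variable [MulAction H Ω] {a' b' c' : Ω} (R : Q3 G H a' b' c')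
include R

theorem exists_b : ∃ b'' ∈ orbit H b', stabilizer H b = stabilizer H b'' := by
  have := R.fin
  have := M.finH
  obtain ⟨x, hx, h5⟩ := Inv.exists_not_dvd (K := stabilizer H b) (L := orbit H b') (p := 3)
    (fun g _ y hy => smul_mem_orbit_iff.2 hy) (by rw [R.hb]; decide)
  have e := card_stab (H := H) x
  rw [orbit_eq_iff.2 hx, R.hb, M.card] at e
  have e' : Nat.card (stabilizer H x) = 29160 := by omega
  rw [ncard_orb_swap (M.card_b.trans e'.symm)] at h5
  exact ⟨x, hx, (Subgroup.eq_of_le_of_card_ge (M.le_stab_b e' h5) (M.card_b.trans e'.symm).le).symm⟩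

variable (eb : stabilizer H b = stabilizer H b')
include eb

theorem lam : {y | y ∈ orbit H b' ∧ Adj G a' b' c' y}.ncard = 56 ∧
    {y | y ∈ orbit H b' ∧ Adj G a' b' b' y}.ncard = 30 ∧
    ∀ h : H, Adj S a b b (h • b) ↔ Adj G a' b' b' (h • b') := by
  have := M.R.fin
  obtain ⟨T, h1, h2, h3⟩ := exists_pull eb (T := {y | y ∈ orbit H b' ∧ Adj G a' b' b' y}) fun _ h => h.1
  have i : Inv (stabilizer H b) T := inv_pull h1 h3 (eb ▸ R.inv_nbr b' b')
  have s : T ⊆ orbit (stabilizer H b) y1 ∪ orbit (stabilizer H b) y2 := fun y hy =>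
    (M.oy y (h1 hy)).resolve_left fun e => R.irr b' (by simpa using ((h3 1).1 (by rwa [one_smul, ← e])).2)
  have d := M.ny1.trans_ne ((by decide : 30 ≠ 81).trans_eq M.ny2.symm)
  have n := ncard_two s (disj_orb d)
  have p1 := i.ncard_inter_orb y1
  have p2 := i.ncard_inter_orb y2
  have q1 := R.val_b
  have q2 := R.edges
  have q3 := R.conn
  rw [M.ny1] at p1
  rw [M.ny2] at p2
  have e := i.eq_two s (by rw [M.ny1]; omega) d
  refine ⟨by omega, by omega, fun h => ?_⟩
  refine Iff.trans ?_ ((h3 h).trans (and_iff_right (mem_orbit b' h)))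
  rw [e]
  refine ⟨fun k => ?_, fun k => (M.adj_orb k).2 M.ay1⟩
  rcases M.oy _ (mem_orbit b h) with e | e | e
  exacts [absurd (by rwa [e] at k) (M.R.irr b), e, absurd ((M.adj_orb e).1 k) M.ay2]

theorem adj_cc (ec : stabilizer H c = stabilizer H c') (h : H) :
    h • c ∈ orbit (stabilizer H c) w1 ↔ Adj G a' b' c' (h • c') := by
  have := M.R.fin
  obtain ⟨T, h1, h2, h3⟩ := exists_pull ec (T := {y | y ∈ orbit H c' ∧ Adj G a' b' c' y}) fun _ h => h.1
  have q := R.val_c
  rw [(M.lam R eb).1] at q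
  rw [← (inv_pull h1 h3 (ec ▸ R.inv_nbr c' c')).eq_two (fun y hy => (M.ow y (h1 hy)).resolve_left fun e =>
      R.irr c' (by simpa using ((h3 1).1 (by rwa [one_smul, ← e])).2))
    (by rw [M.nw1]; omega) (by rw [M.nw1, M.nw2]; decide), h3]
  exact and_iff_right (mem_orbit c' h)

section

variable (hT : ∀ h : H, Adj S a b c (h • b) ↔ Adj G a' b' c' (h • b'))
include hT

omit eb in
theorem stab_c : stabilizer H c = stabilizer H c' := by
  have := M.finH
  have e := card_stab (H := H) c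
  have e' := card_stab (H := H) c'
  rw [M.R.hc] at e
  rw [R.hc] at e'
  refine (Subgroup.eq_of_le_of_card_ge (fun g hg => M.sep _ (mem_orbit c g) ?_) (by omega)).symm
  rintro _ ⟨h, rfl⟩
  change Adj S a b (g • c) (h • b) ↔ Adj S a b c (h • b)
  rw [hT, ← smul_inv_smul g (h • b), M.R.adjH, ← mul_smul, hT, mul_smul, ← R.adjH g, smul_inv_smul,
    mem_stabilizer_iff.1 hg]

theorem exists_iso' : ∃ θ : X ≃ Ω, ∀ x y, Adj G a' b' (θ x) (θ y) ↔ Adj S a b x y := by
  have ec := M.stab_c R hT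
  obtain ⟨θ, hθ⟩ := exists_equiv (H := H) ![a, b, c] ![a', b', c'] M.R.vec_cov R.vec_cov fun i j g => by
    by_cases n : i = j
    · subst n
      fin_cases i
      exacts [iff_of_true (M.R.fix g) (R.fix g), SetLike.ext_iff.1 eb g, SetLike.ext_iff.1 ec g]
    · exact iff_of_false (M.R.vec_ne i j g n) (R.vec_ne i j g n)
  have k00 : ∀ h : H, Adj G a' b' a' (h • a') ↔ Adj S a b a (h • a) := fun h => by
    rw [R.fix, M.R.fix]; exact iff_of_false (R.irr _) (M.R.irr _)
  have k01 : ∀ h : H, Adj G a' b' a' (h • b') ↔ Adj S a b a (h • b) := fun h =>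
    iff_of_true (R.adj_a.2 (mem_orbit _ h)) (M.R.adj_a.2 (mem_orbit _ h))
  have k02 : ∀ h : H, Adj G a' b' a' (h • c') ↔ Adj S a b a (h • c) := fun h =>
    iff_of_false (R.nadj (mem_orbit _ h)) (M.R.nadj (mem_orbit _ h))
  have k21 : ∀ h : H, Adj G a' b' c' (h • b') ↔ Adj S a b c (h • b) := fun h =>
    (hT h).symm
  have k : ∀ (i j : Fin 3) (h : H), Adj G a' b' (![a', b', c'] i) (h • ![a', b', c'] j) ↔
      Adj S a b (![a, b, c] i) (h • ![a, b, c] j) := fun i j h => by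
    fin_cases i <;> fin_cases j
    exacts [k00 h, k01 h, k02 h, (R.flip ..).trans ((k01 _).trans (M.R.flip ..).symm), ((M.lam R eb).2.2 h).symm,
      (R.flip ..).trans ((k21 _).trans (M.R.flip ..).symm), (R.flip ..).trans ((k02 _).trans (M.R.flip ..).symm),
      k21 h, (M.adj_cc R eb ec h).symm.trans (M.adj_cc M.R rfl rfl h)]
  refine ⟨θ, fun x y => ?_⟩
  obtain ⟨i, g, rfl⟩ := M.R.vec_cov x
  obtain ⟨j, h, e⟩ := M.R.vec_cov (g⁻¹ • y)
  rw [← smul_inv_smul g y, ← e, M.R.adjH, ← mul_smul, hθ, hθ, mul_smul, R.adjH, k]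

end

open Classical in
theorem exists_hemi {s : H} (hs : s ^ 7 = 1) : ∃ c'' ∈ orbit H c', ∃ T ⊆ orbit H b, (∀ y ∈ T, s • y ∈ T) ∧
    (∀ v : Fin 4 → X, (∀ i, v i ∈ orbit H b) → (∀ i j, i ≠ j → Adj S a b (v i) (v j)) →
      ∑ i, (if v i ∈ T then 1 else 0 : ℤ) = 2) ∧ ∀ h : H, h • b ∈ T ↔ Adj G a' b' c'' (h • b') := by
  have := R.fin
  have := M.finH
  obtain ⟨x, hx, h7⟩ := Inv.exists_not_dvd (K := Subgroup.zpowers s) (L := orbit H c') (p := 7)
    (fun g _ y hy => smul_mem_orbit_iff.2 hy) (by rw [R.hc]; decide)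
  have d : (orbit (Subgroup.zpowers s) x).ncard ∣ 7 :=
    (Dvd.intro _ (orb_mul _ x)).trans (by rw [Nat.card_zpowers]; exact orderOf_dvd_of_pow_eq_one hs)
  have sx : s • x = x := le_stab_of_ncard (((Nat.dvd_prime (by decide)).1 d).resolve_right fun e => h7 (e ▸ dvd_rfl))
    (Subgroup.mem_zpowers s)
  obtain ⟨T, h1, -, h3⟩ := exists_pull eb (T := {y | y ∈ orbit H b' ∧ Adj G a' b' x y}) fun _ h => h.1
  have h4 : ∀ h : H, h • b ∈ T ↔ Adj G a' b' x (h • b') := fun h => (h3 h).trans (and_iff_right (mem_orbit b' h))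
  refine ⟨x, hx, T, h1, fun y hy => ?_, fun v hv ha => ?_, h4⟩
  · obtain ⟨h, rfl⟩ : ∃ h : H, h • b = y := h1 hy
    rw [← mul_smul, h4, mul_smul, ← sx, R.adjH, ← h4]; exact hy
  choose g hg using hv
  have hg' : ∀ i, g i • b = v i := hg
  have aa : ∀ i, Adj G a' b' a' (g i • b') := fun i => R.adj_a.2 (mem_orbit _ _)
  have k := R.clique (M.lam R eb).2.1 (Fin.cons a' fun i => g i • b') (fun i j n => by
    induction i using Fin.cases with
    | zero =>
      induction j using Fin.cases with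
      | zero => exact absurd rfl n
      | succ j => exact aa j
    | succ i =>
      induction j using Fin.cases with
      | zero => exact R.symm (aa i)
      | succ j =>
        have := ha i j fun e => n (e ▸ rfl)
        rw [← hg', ← hg', ← smul_inv_smul (g i) (g j • b), M.R.adjH, ← mul_smul, (M.lam R eb).2.2, mul_smul,
          ← R.adjH (g i), smul_inv_smul] at this
        exact this) (x := x) fun i => by
    induction i using Fin.cases with
    | zero => exact fun e : a' = x => R.ac (e ▸ hx)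
    | succ i => exact fun e : g i • b' = x => Set.disjoint_left.1 R.disj (mem_orbit b' (g i)) (e ▸ hx)
  rw [Fin.sum_univ_succ, Fin.cons_zero, if_neg (R.nadj hx), zero_add] at k
  simpa only [Fin.cons_succ, ← hg', h4, R.comm (y := x)] using k

end Md

/-- The conclusion: `G` preserves a copy of the model graph. -/
def Concl (S G : Type*) {X : Type*} (Ω : Type*) [Group S] [Group G] [MulAction S X] [MulAction G Ω] (a b : X) : Prop :=
  ∃ θ : X ≃ Ω, ∀ g : G, ∀ x y, Adj S a b (θ.symm (g • θ x)) (θ.symm (g • θ y)) ↔ Adj S a b x y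

/-- The conclusion holds whenever the neighbours of a far point correspond to `U`. -/
def Pat (S G H : Type*) {X : Type*} (Ω : Type*) [Group S] [Group G] [Group H] [MulAction S X] [MulAction H X]
    [MulAction G Ω] (a b : X) (U : Set X) : Prop :=
  ∀ (_ : MulAction H Ω) (a' b' c' : Ω), Q3 G H a' b' c' → stabilizer H b = stabilizer H b' →
    (∀ h : H, h • b ∈ U ↔ Adj G a' b' c' (h • b')) → Concl S G Ω a b

theorem Md.pat {a b c y1 y2 w1 w2 : X} (M : Md S H a b c y1 y2 w1 w2) {U : Set X}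
    (hU : ∀ y ∈ orbit H b, y ∈ U ↔ Adj S a b c y) : Pat S G H Ω a b U := fun _ _ _ _ R eb hT => by
  obtain ⟨θ, hθ⟩ := M.exists_iso' R eb fun h => (hU _ (mem_orbit b h)).symm.trans (hT h)
  exact ⟨θ, fun g x y => by rw [← hθ, θ.apply_symm_apply, θ.apply_symm_apply, adj_smul, hθ]⟩

theorem Pat.twist {a b : X} {U U' : Set X} (P : Pat S G H Ω a b U) {σ : X → X} (α : H ≃* H)
    (hα : ∀ h, ∀ y ∈ orbit H b, α h • σ y = σ (h • y)) (inj : (orbit H b).InjOn σ) {y : X} (hy : y ∈ orbit H b)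
    (e : σ y = b) (hU : ∀ y ∈ orbit H b, y ∈ U' ↔ σ y ∈ U) : Pat S G H Ω a b U' := fun _ a' b' c' R eb hT => by
  obtain ⟨g, rfl⟩ : ∃ g : H, g • b = y := hy
  have k : ∀ h : H, σ ((α.symm h * g) • b) = h • b := fun h => by
    rw [mul_smul, ← hα _ _ (mem_orbit b g), α.apply_symm_apply, e]
  refine P (MulAction.compHom Ω α.symm.toMonoidHom) a' (g • b') c'
    ((R.change (mem_orbit b' g) (mem_orbit_self c')).comp α.symm) (Subgroup.ext fun h => ?_) fun h => ?_
  · change h • b = b ↔ α.symm h • g • b' = g • b'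
    rw [← mul_smul, ← smul_eq_iff_of_stab eb, ← inj.eq_iff (mem_orbit b _) (mem_orbit b _), k, e]
  · change _ ↔ Adj G a' (g • b') c' (α.symm h • g • b')
    rw [R.adj_change (mem_orbit b' g), ← mul_smul, ← hT, hU _ (mem_orbit b _), k]

end Cfsg.Lib.McR3
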