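import Cfsg.Agent.Lib.SuzR.Cmp

/-!
# Rank 3 actions on 275 points with subdegrees 112 and 162
-/

set_option autoImplicit false

namespace Cfsg.Lib.McR3

open MulAction Cfsg.Lib.SuzR

variable {G H Ω : Type*} [Group G] [Group H] [MulAction G Ω] [MulAction H Ω]

/-- `G` is transitive on 275 points, `H` induces the stabilizer of `a`, with orbits of sizes 112 and 162. -/
structure Q3 (G H : Type*) [Group G] [Group H] [MulAction G Ω] [MulAction H Ω] (a b c : Ω) : Prop where
  fin : Finite Ω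
  card : Nat.card Ω = 275
  tr : ∀ x : Ω, ∃ g : G, g • a = x
  sur : ∀ g : G, g • a = a → ∃ h : H, ∀ x : Ω, h • x = g • x
  act : ∀ h : H, ∃ g : G, ∀ x : Ω, h • x = g • x
  fix : ∀ h : H, h • a = a
  hb : (orbit H b).ncard = 112
  hc : (orbit H c).ncard = 162

namespace Q3

variable {a b c : Ω} (R : Q3 G H a b c)
include R

theorem adjH {x y : Ω} (h : H) : Adj G a b (h • x) (h • y) ↔ Adj G a b x y := by
  obtain ⟨g, hg⟩ := R.act h
  rw [hg, hg, adj_smul]

theorem adj_a {y : Ω} : Adj G a b a y ↔ y ∈ orbit H b := by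
  refine ⟨fun ⟨g, p, q⟩ => ?_, fun ⟨h, q⟩ => ?_⟩
  · obtain ⟨h, hh⟩ := R.sur g p
    exact ⟨h, (hh b).trans q⟩
  · obtain ⟨g, hg⟩ := R.act h
    exact ⟨g, (hg a).symm.trans (R.fix h), (hg b).symm.trans q⟩

theorem a_not_mem {x : Ω} (h : (orbit H x).ncard ≠ 1) : a ∉ orbit H x := fun k => h (by
  rw [← orbit_eq_iff.2 k, Set.ncard_eq_one]
  exact ⟨a, Set.eq_singleton_iff_unique_mem.2 ⟨mem_orbit_self a, fun _ ⟨g, e⟩ => e ▸ R.fix g⟩⟩)

theorem ab : a ∉ orbit H b := R.a_not_mem (by rw [R.hb]; decide)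
theorem ac : a ∉ orbit H c := R.a_not_mem (by rw [R.hc]; decide)

theorem disj : Disjoint (orbit H b) (orbit H c) := by
  rw [← orb_top (H := H), ← orb_top (H := H)]
  exact disj_orb (by rw [orb_top, orb_top, R.hb, R.hc]; decide)

theorem tri (y : Ω) : y = a ∨ y ∈ orbit H b ∨ y ∈ orbit H c := by
  have := R.fin
  have e : insert a (orbit H b ∪ orbit H c) = Set.univ := Set.eq_of_subset_of_ncard_le (Set.subset_univ _) (by
    rw [Set.ncard_insert_of_notMem (fun h => h.elim R.ab R.ac), Set.ncard_union_eq R.disj, R.hb, R.hc,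
      Set.ncard_univ, R.card])
  exact e.ge (Set.mem_univ y)

theorem irr (x : Ω) : ¬ Adj G a b x x := fun ⟨g, p, q⟩ =>
  R.ab (MulAction.injective g (p.trans q.symm) ▸ mem_orbit_self a)

theorem val (x : Ω) : {y | Adj G a b x y}.ncard = 112 := by
  obtain ⟨g, rfl⟩ := R.tr x
  rw [ncard_smul_eq g fun y => adj_smul g, ← R.hb]
  congr 1; ext; exact R.adj_a

theorem symm {x y : Ω} (h : Adj G a b x y) : Adj G a b y x := by
  have := R.fin
  have e := sum_ncard Set.univ Set.univ (Adj G a b) (k := 112) (l := {x | Adj G a b x a}.ncard)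
    (fun x _ => by simpa using R.val x) fun y _ => by
      obtain ⟨g, rfl⟩ := R.tr y
      exact ncard_smul_eq g fun x => by simp [adj_smul]
  rw [Set.ncard_univ, R.card] at e
  have k : {x | Adj G a b x a} = orbit (⊤ : Subgroup H) b := Inv.eq_two (y := c)
    (fun g _ z hz => by have := (R.adjH g).2 hz; rwa [R.fix] at this)
    (fun z hz => by
      rw [orb_top, orb_top]
      exact (R.tri z).resolve_left fun e => R.irr a (e ▸ hz))
    (by rw [orb_top, R.hb]; omega) (by rw [orb_top, orb_top, R.hb, R.hc]; decide)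
  obtain ⟨g, rfl, rfl⟩ := h
  exact (adj_smul g).2 (k.ge (mem_orbit_self b))

theorem comm {x y : Ω} : Adj G a b x y ↔ Adj G a b y x := ⟨R.symm, R.symm⟩

theorem nadj {x : Ω} (hx : x ∈ orbit H c) : ¬ Adj G a b a x := fun h =>
  Set.disjoint_left.1 R.disj (R.adj_a.1 h) hx

theorem val_b : 1 + {y | y ∈ orbit H b ∧ Adj G a b b y}.ncard + {y | y ∈ orbit H c ∧ Adj G a b b y}.ncard = 112 := by
  have := R.fin
  rw [← R.val b, ncard_three (L := {y | Adj G a b b y}) (A := {a}) (B := orbit H b) (C := orbit H c)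
    (fun y _ => or_assoc.2 (R.tri y)) (Set.disjoint_singleton_left.2 R.ab) (Set.disjoint_singleton_left.2 R.ac) R.disj,
    Set.inter_eq_right.2 (Set.singleton_subset_iff.2
      (show a ∈ {y | Adj G a b b y} from R.symm (R.adj_a.2 (mem_orbit_self b)))), Set.ncard_singleton,
    Set.inter_comm _ (orbit H b), Set.inter_comm _ (orbit H c)]
  rfl

theorem val_c : {y | y ∈ orbit H b ∧ Adj G a b c y}.ncard + {y | y ∈ orbit H c ∧ Adj G a b c y}.ncard = 112 := by
  have := R.fin
  rw [← R.val c, ncard_two (L := {y | Adj G a b c y}) (A := orbit H b) (B := orbit H c)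
    (fun y hy => (R.tri y).resolve_left fun e => R.nadj (mem_orbit_self c) (R.symm (e ▸ hy))) R.disj]
  congr 2 <;> ext <;> exact and_comm

theorem ncard_nbr {x u v : Ω} (hx : x ∈ orbit H u) :
    {y | y ∈ orbit H v ∧ Adj G a b x y}.ncard = {y | y ∈ orbit H v ∧ Adj G a b u y}.ncard := by
  obtain ⟨h, rfl⟩ := hx
  exact ncard_smul_eq h fun y => and_congr smul_mem_orbit_iff (R.adjH h)

theorem edges : 112 * {y | y ∈ orbit H c ∧ Adj G a b b y}.ncard = 162 * {y | y ∈ orbit H b ∧ Adj G a b c y}.ncard := by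
  have := R.fin
  rw [← R.hb, ← R.hc]
  exact sum_ncard _ _ (Adj G a b) (fun x hx => R.ncard_nbr hx) fun y hy => by
    simpa only [R.comm (y := y)] using R.ncard_nbr hy

theorem conn : {y | y ∈ orbit H c ∧ Adj G a b b y}.ncard ≠ 0 := fun h => by
  classical
  have := R.fin
  have := Fintype.ofFinite Ω
  have t : ∀ {x y z}, Adj G a b x y → Adj G a b y z → x = z ∨ Adj G a b x z := by
    rintro _ _ z ⟨g, rfl, rfl⟩ h2
    rw [← smul_inv_smul g z] at h2 ⊢
    rw [adj_smul] at h2 ⊢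
    rcases R.tri (g⁻¹ • z) with e | e | e
    · exact .inl (by rw [e])
    · exact .inr (R.adj_a.2 e)
    · exact absurd ((Set.ncard_eq_zero).1 h) (Set.Nonempty.ne_empty ⟨_, e, h2⟩)
  let f : Ω → Set Ω := fun x => insert x {y | Adj G a b x y}
  have m : ∀ {x y}, y ∈ f x → f y ⊆ f x := by
    rintro x y (rfl | hy) z hz
    · exact hz
    · rcases hz with rfl | hz
      · exact .inr hy
      · exact (t hy hz).imp Eq.symm id
  have e : ∀ x y, f y = f x ↔ y ∈ f x := fun x y => ⟨fun e => e ▸ Set.mem_insert _ _, fun k =>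
    (m k).antisymm (m (k.imp Eq.symm R.symm))⟩
  have k := Finset.card_eq_sum_card_image f Finset.univ
  rw [Finset.card_univ, ← Nat.card_eq_fintype_card, R.card] at k
  refine absurd (k ▸ Finset.dvd_sum fun s hs => ?_ : 113 ∣ 275) (by decide)
  obtain ⟨x, -, rfl⟩ := Finset.mem_image.1 hs
  have : (f x).ncard = 113 := by
    rw [Set.ncard_insert_of_notMem (show x ∉ {y | Adj G a b x y} from R.irr x), R.val]
  rw [← this, Set.ncard_eq_toFinset_card']
  exact dvd_of_eq (by congr 1; ext; simp [e])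

end Q3

theorem Q3.change {a b c b' c' : Ω} (R : Q3 G H a b c) (hb : b' ∈ orbit H b) (hc : c' ∈ orbit H c) :
    Q3 G H a b' c' :=
  { R with hb := by rw [orbit_eq_iff.2 hb, R.hb], hc := by rw [orbit_eq_iff.2 hc, R.hc] }

theorem Q3.inv_nbr {a b c : Ω} (R : Q3 G H a b c) (x v : Ω) :
    Inv (stabilizer H x) {y | y ∈ orbit H v ∧ Adj G a b x y} := fun g hg y hy =>
  ⟨smul_mem_orbit_iff.2 hy.1, by rw [← mem_stabilizer_iff.1 hg]; exact (R.adjH g).2 hy.2⟩

theorem Q3.vec_ne {a b c : Ω} (R : Q3 G H a b c) (i j : Fin 3) (g : H) (n : i ≠ j) :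
    g • ![a, b, c] i ≠ ![a, b, c] j := fun e => by
  have p1 : ∀ g : H, g • a ≠ b := fun g e => R.ab (by rw [← R.fix g, e]; exact mem_orbit_self b)
  have p2 : ∀ g : H, g • a ≠ c := fun g e => R.ac (by rw [← R.fix g, e]; exact mem_orbit_self c)
  have p3 : ∀ g : H, g • b ≠ c := fun g e => Set.disjoint_left.1 R.disj ⟨g, e⟩ (mem_orbit_self c)
  fin_cases i <;> fin_cases j
  exacts [n rfl, p1 g e, p2 g e, p1 g⁻¹ (inv_smul_eq_iff.2 e.symm), n rfl, p3 g e,
    p2 g⁻¹ (inv_smul_eq_iff.2 e.symm), p3 g⁻¹ (inv_smul_eq_iff.2 e.symm), n rfl]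

theorem Q3.vec_cov {a b c : Ω} (R : Q3 G H a b c) (x : Ω) : ∃ i : Fin 3, ∃ h : H, h • ![a, b, c] i = x := by
  rcases R.tri x with rfl | e | e
  exacts [⟨0, 1, one_smul _ _⟩, ⟨1, e⟩, ⟨2, e⟩]

theorem Q3.flip {a b c : Ω} (R : Q3 G H a b c) (h : H) (x y : Ω) :
    Adj G a b x (h • y) ↔ Adj G a b y (h⁻¹ • x) := by
  rw [R.comm, ← R.adjH h⁻¹, inv_smul_smul]


theorem Q3.comp {a b c : Ω} (R : Q3 G H a b c) (α : H ≃* H) :
    @Q3 Ω G H _ _ _ (MulAction.compHom Ω α.toMonoidHom) a b c := by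
  have e : ∀ x : Ω, @orbit H Ω (MulAction.compHom Ω α.toMonoidHom).toSMul x = orbit H x := fun x =>
    Set.ext fun y => ⟨fun ⟨h, k⟩ => ⟨α h, k⟩, fun ⟨h, k⟩ => ⟨α.symm h, by
      change α (α.symm h) • x = y
      rw [α.apply_symm_apply]; exact k⟩⟩
  refine @Q3.mk Ω G H _ _ _ (MulAction.compHom Ω α.toMonoidHom) a b c R.fin R.card R.tr (fun g hg => ?_)
    (fun h => R.act (α h)) (fun h => R.fix (α h)) (by rw [e]; exact R.hb) (by rw [e]; exact R.hc)
  obtain ⟨h, hh⟩ := R.sur g hg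
  exact ⟨α.symm h, fun x => by
    change α (α.symm h) • x = _
    rw [α.apply_symm_apply]; exact hh x⟩

open Classical in
/-- Cliques of size five are regular. -/
theorem Q3.clique {a b c : Ω} (R : Q3 G H a b c) (hl : {y | y ∈ orbit H b ∧ Adj G a b b y}.ncard = 30)
    (v : Fin 5 → Ω) (hv : ∀ i j, i ≠ j → Adj G a b (v i) (v j)) {x : Ω} (hx : ∀ i, v i ≠ x) :
    ∑ i, (if Adj G a b (v i) x then 1 else 0 : ℤ) = 2 := by
  have := R.fin
  have := Fintype.ofFinite Ω
  have cn : ∀ {p q : Ω}, Adj G a b p q → {y | Adj G a b p y ∧ Adj G a b q y}.ncard = 30 := by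
    rintro _ _ ⟨g, rfl, rfl⟩
    rw [ncard_smul_eq g (q := fun y => y ∈ orbit H b ∧ Adj G a b b y) fun y => by rw [adj_smul, adj_smul, R.adj_a], hl]
  let e : Ω → ℤ := fun y => ∑ i, if Adj G a b (v i) y then 1 else 0
  have c1 : ∀ i j, ∑ y, ((if Adj G a b (v i) y then 1 else 0) * if Adj G a b (v j) y then 1 else 0 : ℤ) =
      30 + if i = j then 82 else 0 := fun i j => by
    simp only [ite_zero_mul_ite_zero, one_mul, Finset.sum_boole]
    by_cases h : i = j
    · subst h
      have := R.val (v i)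
      rw [Set.ncard_eq_toFinset_card'] at this
      simp only [and_self, if_true]
      rw [show (Finset.univ.filter fun y => Adj G a b (v i) y).card = 112 from by rw [← this]; congr 1; ext; simp]
      rfl
    · have := cn (hv i j h)
      rw [Set.ncard_eq_toFinset_card'] at this
      rw [if_neg h, show (Finset.univ.filter fun y => Adj G a b (v i) y ∧ Adj G a b (v j) y).card = 30 from by
        rw [← this]; congr 1; ext; simp]
      rfl
  have h1 : ∑ y, e y = 560 := by
    rw [Finset.sum_comm]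
    have : ∀ i, ∑ y, (if Adj G a b (v i) y then 1 else 0 : ℤ) = 112 := fun i => by
      simpa only [ite_zero_mul_ite_zero, and_self, one_mul, if_true, show (30 : ℤ) + 82 = 112 from rfl] using c1 i i
    simp only [this]; rfl
  have h2 : ∑ y, e y ^ 2 = 1160 := by
    simp only [e, sq, Finset.sum_mul_sum]
    rw [Finset.sum_comm, Finset.sum_congr rfl fun i _ => Finset.sum_comm]
    simp only [c1]; decide
  have h3 : ∑ y, (e y - 2) ^ 2 = 20 := by
    simp only [sub_sq, Finset.sum_add_distrib, Finset.sum_sub_distrib, h2, mul_assoc, ← Finset.mul_sum,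
      ← Finset.sum_mul, h1, Finset.sum_const, Finset.card_univ, ← Nat.card_eq_fintype_card, R.card]
    norm_num
  have inj : Function.Injective v := fun i j k => by_contra fun n => R.irr (v j) (k ▸ hv i j n)
  have h4 : ∀ j, e (v j) = 4 := fun j => by
    have : ∀ i, (if Adj G a b (v i) (v j) then 1 else 0 : ℤ) = 1 - if i = j then 1 else 0 := fun i => by
      by_cases h : i = j
      · subst h; simp [R.irr]
      · simp [h, hv i j h]
    simp only [e, this]
    simp
  have h5 := Finset.sum_le_sum_of_subset_of_nonneg (f := fun y => (e y - 2) ^ 2)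
    (Finset.subset_univ (insert x (Finset.univ.image v))) fun _ _ _ => sq_nonneg _
  rw [h3, Finset.sum_insert (by simpa using hx), Finset.sum_image fun _ _ _ _ k => inj k] at h5
  simp only [h4] at h5
  norm_num at h5
  change e x = 2
  nlinarith [sq_nonneg (e x - 2)]

/-- A bijection normalising a faithful action gives an automorphism. -/
theorem exists_aut {X : Type*} [MulAction H X] [Finite H] {D : Set X} (hD : ∀ h : H, ∀ y ∈ D, h • y ∈ D)
    (hf : ∀ h : H, (∀ y ∈ D, h • y = y) → h = 1) {σ : X → X} (sur : ∀ z ∈ D, ∃ y ∈ D, σ y = z) (inj : D.InjOn σ)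
    {S : Set H} (hS : Subgroup.closure S = ⊤) (gen : ∀ h ∈ S, ∃ h' : H, ∀ y ∈ D, h' • σ y = σ (h • y)) :
    ∃ α : H ≃* H, ∀ h, ∀ y ∈ D, α h • σ y = σ (h • y) := by
  have all : ∀ h : H, ∃ h' : H, ∀ y ∈ D, h' • σ y = σ (h • y) := fun h => by
    refine Subgroup.closure_induction (p := fun h _ => ∃ h' : H, ∀ y ∈ D, h' • σ y = σ (h • y)) gen
      ⟨1, fun y _ => by rw [one_smul, one_smul]⟩ ?_ ?_ (hS.ge trivial : h ∈ _)
    · rintro g k - - ⟨g', hg⟩ ⟨k', hk⟩
      exact ⟨g' * k', fun y hy => by rw [mul_smul, hk y hy, hg _ (hD k y hy), mul_smul]⟩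
    · rintro g - ⟨g', hg⟩
      exact ⟨g'⁻¹, fun y hy => by rw [inv_smul_eq_iff, hg _ (hD g⁻¹ y hy), smul_inv_smul]⟩
  choose f hf' using all
  have ext : ∀ g k : H, (∀ y ∈ D, g • σ y = k • σ y) → g = k := fun g k h =>
    (inv_mul_eq_one.1 (hf _ fun z hz => by
      obtain ⟨y, hy, rfl⟩ := sur z hz
      rw [mul_smul, h y hy, inv_smul_smul])).symm
  let φ : H →* H := MonoidHom.mk' f fun g k => ext _ _ fun y hy => by
    rw [hf' _ y hy, mul_smul, mul_smul, hf' k y hy, hf' g _ (hD k y hy)]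
  have hi : Function.Injective φ := (injective_iff_map_eq_one φ).2 fun g hg => hf g fun y hy =>
    inj (hD g y hy) hy (by rw [← hf' g y hy]; change φ g • _ = _; rw [hg, one_smul])
  exact ⟨MulEquiv.ofBijective φ hi.bijective_of_finite, hf'⟩

end Cfsg.Lib.McR3
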